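import Cfsg.Agent.H13.SuzMult.CoverChecks
import Cfsg.Agent.H16.SuzOrder
import Cfsg.Prelude.Def_KGroupFacts

/-!
The sixfold cover of the Suzuki group: the group generated by the lifts of the generators to matrices
over the field of seven elements.
-/

set_option autoImplicit false
set_option maxRecDepth 100000

namespace Cfsg.Agent.H13.SuzMult

open Cfsg Cfsg.Spor Cfsg.Spor.Suz
open scoped commutatorElement

/-- The general linear group. -/
abbrev GL12 := M12ˣ

/-- The number of a generator. -/
def num : Gen → Fin 7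
  | .a => 0
  | .b => 1
  | .c => 2
  | .d => 3
  | .e => 4
  | .f => 5
  | .g => 6

theorem toMat_id : toMat idCode = 1 := by
  have h : gensOk = true := gens_ok
  simp only [gensOk, Bool.and_eq_true] at h
  rw [scalOk_spec h.1.1, Nat.cast_one, map_one]

theorem gen_inv (i : Fin 7) : toMat (gcode i) * toMat (invs.getD i 0) = 1 ∧
    toMat (invs.getD i 0) * toMat (gcode i) = 1 := by
  have h : gensOk = true := gens_ok
  simp only [gensOk, Bool.and_eq_true] at h
  have h2 := below_spec h.1.2 i i.2
  rw [Bool.and_eq_true] at h2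
  exact ⟨(mulOk_spec h2.1).trans toMat_id, (mulOk_spec h2.2).trans toMat_id⟩

/-- The lifts as units. -/
def lift (i : Fin 7) : GL12 :=
  ⟨toMat (gcode i), toMat (invs.getD i 0), (gen_inv i).1, (gen_inv i).2⟩

/-- The scalar units. -/
def scalHom : (ZMod 7)ˣ →* GL12 := Units.map (Matrix.scalar (Fin 12) : ZMod 7 →+* M12).toMonoidHom

theorem scalHom_injective : Function.Injective scalHom :=
  Units.map_injective fun _ _ h => Matrix.scalar_inj.1 h

theorem scalHom_central (c : (ZMod 7)ˣ) (u : GL12) : u * scalHom c = scalHom c * u :=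
  Units.ext (Matrix.scalar_commute (c : ZMod 7) (fun _ => Commute.all _ _) (u : M12)).eq.symm

/-- The scalars. -/
abbrev Z : Subgroup GL12 := scalHom.range

instance : Z.Normal where
  conj_mem := by
    rintro _ ⟨c, rfl⟩ u
    refine ⟨c, ?_⟩
    rw [scalHom_central, mul_inv_cancel_right]

theorem mem_Z_of_val {u : GL12} {c : ℕ} (h0 : 0 < c) (h7 : c < 7)
    (h : (u : M12) = Matrix.scalar (Fin 12) (c : ZMod 7)) : u ∈ Z := by
  have hc : (c : ZMod 7) ≠ 0 := by
    rw [Ne, ZMod.natCast_eq_zero_iff]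
    exact fun hd => absurd (Nat.le_of_dvd h0 hd) (by omega)
  haveI : Fact (Nat.Prime 7) := ⟨by norm_num⟩
  exact ⟨Units.mk0 _ hc, Units.ext h.symm⟩

/-- The projective lifts. -/
def pgen (i : Fin 7) : GL12 ⧸ Z := QuotientGroup.mk (lift i)

/-- A word in the lifts. -/
def wordVal (ws : List (Fin 7)) : GL12 := (ws.map lift).prod

theorem chain_spec : ∀ (ws : List (Fin 7)) (pre : List ℕ) (cur c : ℕ),
    chain (ws.map (fun i => (i : ℕ))) pre cur c = true →
      toMat cur * (wordVal ws : M12) = Matrix.scalar (Fin 12) (c : ZMod 7)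
  | [], pre, cur, c, h => by
    simpa [wordVal] using scalOk_spec (A := cur) h
  | l :: ws, [], cur, c, h => Bool.noConfusion h
  | l :: ws, p :: ps, cur, c, h => by
    have h' : ((Nat.blt l 7 && mulOk cur (gcode l) p) &&
      chain (ws.map (fun i => (i : ℕ))) ps p c) = true := h
    simp only [Bool.and_eq_true] at h'
    rw [← chain_spec ws ps p c h'.2, ← mulOk_spec h'.1.2, mul_assoc]
    rfl

theorem rel_word (ws : List (Fin 7)) (k : ℕ)
    (h : (rels.getD k ⟨[], [], 0⟩).word = ws.map (fun i => (i : ℕ))) (hk : k < rels.length) :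
    (ws.map pgen).prod = 1 := by
  have hr := List.all_eq_true.1 rels_ok (rels.getD k ⟨[], [], 0⟩)
    (by rw [List.getD_eq_getElem _ _ hk]; exact List.getElem_mem hk)
  generalize rels.getD k ⟨[], [], 0⟩ = r at h hr
  obtain ⟨word, pre, c⟩ := r
  obtain rfl : word = ws.map (fun i => (i : ℕ)) := h
  cases ws with
  | nil => exact Bool.noConfusion hr
  | cons a rest =>
    have h' : (((Nat.blt a 7 && Nat.blt 0 c) && Nat.blt c 7) &&
      chain (rest.map (fun i => (i : ℕ))) pre (gcode a) c) = true := hr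
    simp only [Bool.and_eq_true, Nat.blt_eq] at h'
    have hz : wordVal (a :: rest) ∈ Z := mem_Z_of_val h'.1.1.2 h'.1.2 (chain_spec rest pre (gcode a) c h'.2)
    have : ((a :: rest).map pgen).prod = QuotientGroup.mk' Z (wordVal (a :: rest)) := by
      rw [wordVal, map_list_prod, List.map_map]; rfl
    rw [this]
    exact (QuotientGroup.eq_one_iff _).2 hz

/-- The word of a relator of the graph. -/
def pairWord (x y : Gen) : List (Fin 7) := (List.replicate (coxLabel edges' x y) [num x, num y]).flatten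
where
  /-- the edges -/
  edges' : List (Gen × ℕ × Gen) := Cfsg.Spor.Suz.edges

theorem pair_rels : ∀ x ∈ [Gen.a, .b, .c, .d, .e, .f, .g], ∀ y ∈ [Gen.a, .b, .c, .d, .e, .f, .g],
    (rels.getD (7 * (num x).val + (num y).val) ⟨[], [], 0⟩).word = (pairWord x y).map (fun i => (i : ℕ)) ∧
      7 * (num x).val + (num y).val < rels.length := by decide +kernel

theorem prod_replicate (n : ℕ) (a b : Fin 7) :
    ((List.replicate n [a, b]).flatten.map pgen).prod = (pgen a * pgen b) ^ n := by
  induction n with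
  | zero => simp
  | succ n ih =>
    rw [List.replicate_succ, List.flatten_cons, List.map_append, List.prod_append, ih, pow_succ']
    simp

theorem prod_flatten (n : ℕ) (l : List (Fin 7)) :
    ((List.replicate n l).flatten.map pgen).prod = (l.map pgen).prod ^ n := by
  induction n with
  | zero => simp
  | succ n ih => rw [List.replicate_succ, List.flatten_cons, List.map_append, List.prod_append, ih, pow_succ']

theorem mem_all (x : Gen) : x ∈ [Gen.a, .b, .c, .d, .e, .f, .g] := by cases x <;> simp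

theorem pgen_pair (x y : Gen) :
    (pgen (num x) * pgen (num y)) ^ coxLabel Cfsg.Spor.Suz.edges x y = 1 := by
  rw [← prod_replicate]
  exact rel_word (pairWord x y) _ (pair_rels x (mem_all x) y (mem_all y)).1
    (pair_rels x (mem_all x) y (mem_all y)).2

theorem pgen_sq (x : Gen) : pgen (num x) * pgen (num x) = 1 := by
  have h := pgen_pair x x
  rwa [show coxLabel Cfsg.Spor.Suz.edges x x = 1 from if_pos rfl, pow_one] at h

theorem pgen_inv (i : Fin 7) : (pgen i)⁻¹ = pgen i := by
  refine inv_eq_of_mul_eq_one_right ?_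
  have h : ∀ j : Fin 7, ∃ x : Gen, num x = j := by
    intro j; fin_cases j
    · exact ⟨.a, rfl⟩
    · exact ⟨.b, rfl⟩
    · exact ⟨.c, rfl⟩
    · exact ⟨.d, rfl⟩
    · exact ⟨.e, rfl⟩
    · exact ⟨.f, rfl⟩
    · exact ⟨.g, rfl⟩
  obtain ⟨x, rfl⟩ := h i
  exact pgen_sq x

theorem extra_one : ∀ r ∈ Cfsg.Spor.Suz.extra, FreeGroup.lift (fun x => pgen (num x)) r = 1 := by
  intro r hr
  simp only [Cfsg.Spor.Suz.extra, List.mem_cons, List.not_mem_nil, or_false] at hr
  rcases hr with rfl | rfl | rfl | rfl | rfl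
  · rw [← rel_word [0, 3, 2, 3, 2, 3, 2, 3, 2] 49 (by decide +kernel) (by decide +kernel)]
    simp only [map_mul, map_inv, map_pow, FreeGroup.lift_apply_of, num, ← inv_pow, mul_inv_rev, pgen_inv,
      List.map_cons, List.map_nil, List.prod_cons, List.prod_nil, pow_succ, pow_zero, one_mul, mul_one,
      mul_assoc]
  · rw [← rel_word [0, 6, 5, 6, 5] 50 (by decide +kernel) (by decide +kernel)]
    simp only [map_mul, map_inv, map_pow, FreeGroup.lift_apply_of, num, ← inv_pow, mul_inv_rev, pgen_inv,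
      List.map_cons, List.map_nil, List.prod_cons, List.prod_nil, pow_succ, pow_zero, one_mul, mul_one,
      mul_assoc]
  · rw [← rel_word (List.replicate 5 [0, 1, 2, 5]).flatten 51 (by decide +kernel) (by decide +kernel),
      prod_flatten]
    simp only [map_mul, map_pow, FreeGroup.lift_apply_of, num, List.map_cons, List.map_nil, List.prod_cons,
      List.prod_nil, mul_one, mul_assoc]
  · rw [← rel_word (List.replicate 5 [1, 5, 6]).flatten 52 (by decide +kernel) (by decide +kernel),
      prod_flatten]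
    simp only [map_mul, map_pow, FreeGroup.lift_apply_of, num, List.map_cons, List.map_nil, List.prod_cons,
      List.prod_nil, mul_one, mul_assoc]
  · rw [← rel_word (List.replicate 3 ((List.replicate 5 [1, 2, 3, 2, 3]).flatten ++ [4])).flatten 53
      (by decide +kernel) (by decide +kernel), prod_flatten, List.map_append, List.prod_append, prod_flatten]
    simp only [map_mul, map_pow, FreeGroup.lift_apply_of, num, List.map_cons, List.map_nil, List.prod_cons,
      List.prod_nil, mul_one, mul_assoc]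

/-- The projective representation. -/
noncomputable def proj : Spor.Suz →* GL12 ⧸ Z :=
  PresentedGroup.toGroup (f := fun x => pgen (num x)) (by
    rintro r (⟨x, -, y, -, rfl⟩ | hr)
    · rw [map_pow, map_mul, FreeGroup.lift_apply_of, FreeGroup.lift_apply_of]
      exact pgen_pair x y
    · exact extra_one r hr)

theorem proj_of (x : Gen) : proj (PresentedGroup.of x) = pgen (num x) := PresentedGroup.toGroup.of _

theorem pgen_zero_ne : pgen 0 ≠ 1 := by
  intro h
  obtain ⟨c, hc⟩ := (QuotientGroup.eq_one_iff _).1 h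
  have h' : gensOk = true := gens_ok
  simp only [gensOk, Bool.and_eq_true] at h'
  have hn := below_spec h'.2 (c : ZMod 7).val (ZMod.val_lt _)
  have hs : scalOk (gcode 0) (c : ZMod 7).val = true := by
    have e : toMat (gcode 0) = Matrix.scalar (Fin 12) (c : ZMod 7) := (congrArg Units.val hc).symm
    have key : ∀ i j, i < 12 → j < 12 →
        ent (gcode 0) i j = cond (Nat.beq i j) (c : ZMod 7).val 0 := by
      intro i j hi hj
      have := congrFun (congrFun e ⟨i, hi⟩) ⟨j, hj⟩
      rw [Matrix.scalar_apply, Matrix.diagonal_apply] at this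
      have hlt : ent (gcode 0) i j < 7 ∨ ent (gcode 0) i j = 7 := by
        have : ent (gcode 0) i j ≤ 7 := Nat.and_le_right
        omega
      have hne : ent (gcode 0) i j ≠ 7 := by
        have := below_spec (below_spec ent_lt i hi) j hj
        exact Nat.ne_of_lt (Nat.blt_eq ▸ this)
      have hlt7 := hlt.resolve_right hne
      have hv : ((ent (gcode 0) i j : ℕ) : ZMod 7) = _ := this
      have := congrArg ZMod.val hv
      rw [ZMod.val_natCast_of_lt hlt7] at this
      rw [this]
      by_cases hij : i = j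
      · subst hij; simp
      · rw [if_neg (fun hh => hij (congrArg Fin.val hh)),
          show Nat.beq i j = false from Bool.eq_false_iff.2 fun hh => hij (Nat.eq_of_beq_eq_true hh)]
        simp
    exact below_of fun i hi => below_of fun j hj => by rw [key i j hi hj]; exact Nat.beq_refl _
  rw [hs] at hn
  exact Bool.noConfusion hn
where
  ent_lt : below (fun i => below (fun j => Nat.blt (ent (gcode 0) i j) 7) 12) 12 = true := by decide +kernel
  below_of {f : ℕ → Bool} : ∀ {n : ℕ}, (∀ i < n, f i = true) → below f n = true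
    | 0, _ => rfl
    | n + 1, h => show (f n && below f n) = true by
        rw [h n n.lt_succ_self, below_of fun i hi => h i (hi.trans n.lt_succ_self)]; rfl

theorem proj_injective : Function.Injective proj := by
  haveI := H16.SuzOrder.isSimple
  rw [← MonoidHom.ker_eq_bot_iff]
  rcases (MonoidHom.normal_ker proj).eq_bot_or_eq_top with h | h
  · exact h
  · exfalso
    apply pgen_zero_ne
    rw [show (0 : Fin 7) = num Gen.a from rfl, ← proj_of]
    exact MonoidHom.mem_ker.1 (h ▸ Subgroup.mem_top _)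

/-- The cover. -/
def cover : Subgroup GL12 := Subgroup.closure (Set.range lift)

theorem entry_mem : ∀ i, i < tab.length → ∃ u ∈ cover, (u : M12) = toMat (entry i) := by
  intro i
  induction i using Nat.strong_induction_on with
  | _ i ih =>
    intro hi
    have h := tab_spec i hi
    by_cases h7 : i < 7
    · have hb : Nat.blt i 7 = true := (Nat.blt_eq ▸ h7)
      simp only [entryOk, hb, cond_true] at h
      exact ⟨lift ⟨i, h7⟩, Subgroup.subset_closure ⟨_, rfl⟩,
        (congrArg toMat (Nat.eq_of_beq_eq_true h)).symm⟩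
    · have hb : Nat.blt i 7 = false := Bool.eq_false_iff.2 fun hh => h7 (Nat.blt_eq ▸ hh)
      simp only [entryOk, hb, cond_false, Bool.and_eq_true, Nat.blt_eq] at h
      obtain ⟨u, hu, eu⟩ := ih _ h.1.1 (h.1.1.trans hi)
      obtain ⟨v, hv, ev⟩ := ih _ h.1.2 (h.1.2.trans hi)
      exact ⟨u * v, mul_mem hu hv, by rw [Units.val_mul, eu, ev]; exact mulOk_spec h.2⟩

theorem wit_mem {w : Wit} (hw : w ∈ wits) :
    ∃ c : (ZMod 7)ˣ, (c : ZMod 7) = w.c ∧ ∃ h : scalHom c ∈ cover,
      (⟨scalHom c, h⟩ : cover) ∈ commutator cover := by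
  have h := List.all_eq_true.1 wits_ok w hw
  simp only [witOk, Bool.and_eq_true, Nat.blt_eq] at h
  obtain ⟨⟨⟨hu, hv⟩, h1, h2⟩, ⟨h3, h4⟩, h5⟩ := h
  obtain ⟨x, hx, ex⟩ := entry_mem _ hu
  obtain ⟨y, hy, ey⟩ := entry_mem _ hv
  haveI : Fact (Nat.Prime 7) := ⟨by norm_num⟩
  have hc : (w.c : ZMod 7) ≠ 0 := by
    rw [Ne, ZMod.natCast_eq_zero_iff]
    exact fun hd => absurd (Nat.le_of_dvd h4 hd) (by omega)
  refine ⟨Units.mk0 _ hc, rfl, ?_⟩
  have e : x * y = scalHom (Units.mk0 _ hc) * (y * x) := by
    refine Units.ext ?_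
    rw [Units.val_mul, Units.val_mul, Units.val_mul, ex, ey, mulOk_spec h1, mulOk_spec h2]
    exact smulOk_spec h3
  have e' : scalHom (Units.mk0 _ hc) = ⁅x, y⁆ := by
    rw [commutatorElement_def, e]; group
  have hm : scalHom (Units.mk0 _ hc) ∈ cover := by
    rw [e', commutatorElement_def]
    exact mul_mem (mul_mem (mul_mem hx hy) (inv_mem hx)) (inv_mem hy)
  refine ⟨hm, ?_⟩
  have : (⟨scalHom (Units.mk0 _ hc), hm⟩ : cover) = ⁅(⟨x, hx⟩ : cover), ⟨y, hy⟩⁆ := Subtype.ext e'
  rw [this, commutator_def]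
  exact Subgroup.commutator_mem_commutator (Subgroup.mem_top _) (Subgroup.mem_top _)

theorem units_gen : ∀ c : (ZMod 7)ˣ, ∃ a : Fin 2, ∃ b : Fin 3, (c : ZMod 7) = 6 ^ (a : ℕ) * 2 ^ (b : ℕ) := by
  decide +kernel

theorem wit_cs : wits.map Wit.c = [6, 2] := by decide +kernel

theorem scal_mem (c : (ZMod 7)ˣ) :
    ∃ h : scalHom c ∈ cover, (⟨scalHom c, h⟩ : cover) ∈ commutator cover := by
  have h6 : (6 : ℕ) ∈ wits.map Wit.c := by rw [wit_cs]; simp
  have h2 : (2 : ℕ) ∈ wits.map Wit.c := by rw [wit_cs]; simp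
  obtain ⟨w6, hw6, e6⟩ := List.mem_map.1 h6
  obtain ⟨w2, hw2, e2⟩ := List.mem_map.1 h2
  obtain ⟨u, hu, m6, hu'⟩ := wit_mem hw6
  obtain ⟨v, hv, m2, hv'⟩ := wit_mem hw2
  obtain ⟨a, b, hab⟩ := units_gen c
  have hc : c = u ^ (a : ℕ) * v ^ (b : ℕ) := by
    refine Units.ext ?_
    rw [Units.val_mul, Units.val_pow_eq_pow_val, Units.val_pow_eq_pow_val, hu, hv, e6, e2]
    exact hab
  have hm : scalHom c ∈ cover := by
    rw [hc, map_mul, map_pow, map_pow]
    exact mul_mem (pow_mem m6 _) (pow_mem m2 _)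
  refine ⟨hm, ?_⟩
  have : (⟨scalHom c, hm⟩ : cover) =
      (⟨scalHom u, m6⟩ : cover) ^ (a : ℕ) * (⟨scalHom v, m2⟩ : cover) ^ (b : ℕ) := by
    refine Subtype.ext ?_
    push_cast
    rw [hc, map_mul, map_pow, map_pow]
  rw [this]
  exact mul_mem (pow_mem hu' _) (pow_mem hv' _)

theorem range_eq : cover.map (QuotientGroup.mk' Z) = proj.range := by
  rw [cover, MonoidHom.map_closure, MonoidHom.range_eq_map, ← PresentedGroup.closure_range_of,
    MonoidHom.map_closure, ← Set.range_comp, ← Set.range_comp]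
  congr 1
  ext q
  constructor
  · rintro ⟨i, rfl⟩
    fin_cases i
    · exact ⟨.a, proj_of _⟩
    · exact ⟨.b, proj_of _⟩
    · exact ⟨.c, proj_of _⟩
    · exact ⟨.d, proj_of _⟩
    · exact ⟨.e, proj_of _⟩
    · exact ⟨.f, proj_of _⟩
    · exact ⟨.g, proj_of _⟩
  · rintro ⟨x, rfl⟩
    exact ⟨num x, (proj_of x).symm⟩

/-- The Suzuki group has a stem extension with cyclic kernel of order six. -/
theorem exists_stem : ∃ (Γ : Type) (_ : Group Γ) (_ : Finite Γ) (π : Γ →* Spor.Suz),
    Cfsg.IsStemExtension π ∧ IsCyclic π.ker ∧ Nat.card π.ker = 6 := by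
  haveI : Fact (Nat.Prime 7) := ⟨by norm_num⟩
  let q : cover →* proj.range :=
    ((QuotientGroup.mk' Z).comp cover.subtype).codRestrict proj.range fun u => by
      rw [← range_eq]; exact ⟨u, u.2, rfl⟩
  let π : cover →* Spor.Suz := (MonoidHom.ofInjective proj_injective).symm.toMonoidHom.comp q
  have hker : ∀ u : cover, u ∈ π.ker ↔ (u : GL12) ∈ Z := by
    intro u
    rw [MonoidHom.mem_ker]
    show (MonoidHom.ofInjective proj_injective).symm (q u) = 1 ↔ _
    rw [MulEquiv.map_eq_one_iff, Subtype.ext_iff]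
    exact QuotientGroup.eq_one_iff _
  have hsurj : Function.Surjective π := by
    intro s
    obtain ⟨u, hu, e⟩ : proj s ∈ cover.map (QuotientGroup.mk' Z) := range_eq ▸ ⟨s, rfl⟩
    refine ⟨⟨u, hu⟩, ?_⟩
    show (MonoidHom.ofInjective proj_injective).symm (q ⟨u, hu⟩) = s
    rw [MulEquiv.symm_apply_eq]
    exact Subtype.ext e
  let ι : (ZMod 7)ˣ →* π.ker :=
    MonoidHom.mk' (fun c => ⟨⟨scalHom c, (scal_mem c).1⟩, (hker _).2 ⟨c, rfl⟩⟩) fun a b =>
      Subtype.ext (Subtype.ext (map_mul scalHom a b))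
  have hι : Function.Bijective ι := by
    constructor
    · intro a b h
      exact scalHom_injective (congrArg (fun x : π.ker => ((x : cover) : GL12)) h)
    · rintro ⟨u, hu⟩
      obtain ⟨c, hc⟩ := (hker u).1 hu
      exact ⟨c, Subtype.ext (Subtype.ext hc)⟩
  refine ⟨cover, inferInstance, inferInstance, π, ⟨hsurj, ?_, ?_⟩, ?_, ?_⟩
  · intro u hu
    obtain ⟨c, hc⟩ := (hker u).1 hu
    rw [Subgroup.mem_center_iff]
    intro g
    refine Subtype.ext ?_
    show (g : GL12) * u = u * g
    rw [← hc]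
    exact scalHom_central c g
  · intro u hu
    obtain ⟨c, hc⟩ := (hker u).1 hu
    obtain ⟨h, hm⟩ := scal_mem c
    rwa [show u = ⟨scalHom c, h⟩ from Subtype.ext hc.symm]
  · exact isCyclic_of_surjective ι hι.2
  · rw [← Nat.card_congr (Equiv.ofBijective ι hι), Nat.card_units, Nat.card_zmod]

end Cfsg.Agent.H13.SuzMult
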