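import Cfsg.Agent.H13.SuzMult.Slp

/-! The checks of the certificate at 3. -/

set_option autoImplicit false
set_option maxRecDepth 100000

namespace Cfsg.Agent.H13.SuzMult.Syl

open Cfsg.Agent.H16 Cfsg.Agent.H36 Cfsg.Agent.H13.SylMult

theorem pc3_ok : pc3.ok cert3 = true := by decide +kernel

theorem rows3_ok : cert3.rowsOk pc3 = true := by decide +kernel

theorem combos3_ok : cert3.combosOk pc3 = true := by decide +kernel

theorem rels3_ok : perm3.relsOk pc3 = true := by decide +kernel

theorem sep3_ok : perm3.sepOk pc3 = true := by decide +kernel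

theorem conj3_ok : cert3.eqns.all perm3.conjOk = true := by decide +kernel

theorem perm3_ok : perm3.ok pc3 cert3 = true :=
  PermData.ok_of_parts rels3_ok sep3_ok conj3_ok (by decide +kernel) slp_all

end Cfsg.Agent.H13.SuzMult.Syl
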