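import Cfsg.Agent.H13.SuzMult.Slp

/-! The checks of the certificate at 5. -/

set_option autoImplicit false
set_option maxRecDepth 100000

namespace Cfsg.Agent.H13.SuzMult.Syl

open Cfsg.Agent.H16 Cfsg.Agent.H36 Cfsg.Agent.H13.SylMult

theorem pc5_ok : pc5.ok cert5 = true := by decide +kernel

theorem rows5_ok : cert5.rowsOk pc5 = true := by decide +kernel

theorem combos5_ok : cert5.combosOk pc5 = true := by decide +kernel

theorem rels5_ok : perm5.relsOk pc5 = true := by decide +kernel

theorem sep5_ok : perm5.sepOk pc5 = true := by decide +kernel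

theorem conj5_ok : cert5.eqns.all perm5.conjOk = true := by decide +kernel

theorem perm5_ok : perm5.ok pc5 cert5 = true :=
  PermData.ok_of_parts rels5_ok sep5_ok conj5_ok (by decide +kernel) slp_all

end Cfsg.Agent.H13.SuzMult.Syl
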