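import Cfsg.Agent.H13.SuzMult.CoverData

/-! The checks of the matrices lifting the generators of the Suzuki group. -/

set_option autoImplicit false
set_option maxRecDepth 100000

namespace Cfsg.Agent.H13.SuzMult

/-- The `i`-th lift. -/
def gcode (i : ℕ) : ℕ := gens.getD i 0

/-- The `i`-th program entry. -/
def entry (i : ℕ) : ℕ := tab.getD i 0

/-- The products along a word. -/
noncomputable def chain (ws : List ℕ) : List ℕ → ℕ → ℕ → Bool :=
  List.rec (motive := fun _ => List ℕ → ℕ → ℕ → Bool) (fun _ cur c => scalOk cur c)
    (fun l _ ih pre cur c => List.rec (motive := fun _ => Bool) false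
      (fun p ps _ => (Nat.blt l 7 && mulOk cur (gcode l) p) && ih ps p c) pre) ws

/-- The check of a relator. -/
noncomputable def relOk (r : RelCert) : Bool :=
  List.rec (motive := fun _ => Bool) false
    (fun a rest _ => ((Nat.blt a 7 && Nat.blt 0 r.c) && Nat.blt r.c 7) && chain rest r.pre (gcode a) r.c) r.word

/-- The check of a program entry. -/
noncomputable def entryOk (i : ℕ) : Bool :=
  cond (Nat.blt i 7) (Nat.beq (entry i) (gcode i))
    ((Nat.blt (edges.getD i (0, 0)).1 i && Nat.blt (edges.getD i (0, 0)).2 i) &&
      mulOk (entry (edges.getD i (0, 0)).1) (entry (edges.getD i (0, 0)).2) (entry i))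

/-- The check of a pair commuting up to a scalar. -/
noncomputable def witOk (w : Wit) : Bool :=
  ((Nat.blt w.u tab.length && Nat.blt w.v tab.length) &&
    (mulOk (entry w.u) (entry w.v) w.uv && mulOk (entry w.v) (entry w.u) w.vu)) &&
    ((smulOk w.uv w.vu w.c && Nat.blt 0 w.c) && Nat.blt w.c 7)

/-- The identity matrix as a number. -/
def idCode : ℕ := (List.range 12).foldr (fun i acc => 2 ^ (39 * i) + acc) 0

/-- The lifts have the listed inverses, and none is scalar in the listed way. -/
noncomputable def gensOk : Bool :=
  (scalOk idCode 1 && below (fun i => mulOk (gcode i) (invs.getD i 0) idCode &&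
    mulOk (invs.getD i 0) (gcode i) idCode) 7) &&
    below (fun c => !scalOk (gcode 0) c) 7

theorem gens_ok : gensOk = true := by decide +kernel

/-- A relator check by number. -/
noncomputable def relAt (i : ℕ) : Bool := relOk (rels.getD i ⟨[], [], 0⟩)

theorem rels_part0 : below (fun j => relAt (Nat.add 0 j)) 9 = true := by decide +kernel

theorem rels_part1 : below (fun j => relAt (Nat.add 9 j)) 9 = true := by decide +kernel

theorem rels_part2 : below (fun j => relAt (Nat.add 18 j)) 9 = true := by decide +kernel

theorem rels_part3 : below (fun j => relAt (Nat.add 27 j)) 9 = true := by decide +kernel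

theorem rels_part4 : below (fun j => relAt (Nat.add 36 j)) 9 = true := by decide +kernel

theorem rels_part5 : below (fun j => relAt (Nat.add 45 j)) 9 = true := by decide +kernel

theorem rels_ok : rels.all relOk = true := by
  rw [List.all_eq_true]
  intro r hr
  obtain ⟨k, hk, rfl⟩ := List.getElem_of_mem hr
  have key : relAt k = true := by
    have hl : rels.length = 54 := rfl
    obtain ⟨q, j, hj, hq, rfl⟩ : ∃ q j, j < 9 ∧ q < 6 ∧ k = 9 * q + j :=
      ⟨k / 9, k % 9, Nat.mod_lt _ (by norm_num), by omega, (Nat.div_add_mod k 9).symm⟩
    interval_cases q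
    · exact below_spec rels_part0 j hj
    · exact below_spec rels_part1 j hj
    · exact below_spec rels_part2 j hj
    · exact below_spec rels_part3 j hj
    · exact below_spec rels_part4 j hj
    · exact below_spec rels_part5 j hj
  rwa [relAt, List.getD_eq_getElem _ _ hk] at key

theorem tab_part0 : below (fun j => cond (Nat.blt (Nat.add 0 j) tab.length) (entryOk (Nat.add 0 j)) true) 80 = true := by
  decide +kernel

theorem tab_part1 : below (fun j => cond (Nat.blt (Nat.add 80 j) tab.length) (entryOk (Nat.add 80 j)) true) 80 = true := by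
  decide +kernel

theorem tab_part2 : below (fun j => cond (Nat.blt (Nat.add 160 j) tab.length) (entryOk (Nat.add 160 j)) true) 80 = true := by
  decide +kernel

theorem tab_part3 : below (fun j => cond (Nat.blt (Nat.add 240 j) tab.length) (entryOk (Nat.add 240 j)) true) 80 = true := by
  decide +kernel

theorem tab_spec (k : ℕ) (hk : k < tab.length) : entryOk k = true := by
  have hl : tab.length = 299 := rfl
  obtain ⟨q, j, hj, hq, rfl⟩ : ∃ q j, j < 80 ∧ q < 4 ∧ k = 80 * q + j :=
    ⟨k / 80, k % 80, Nat.mod_lt _ (by norm_num), by omega, (Nat.div_add_mod k 80).symm⟩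
  have hb : Nat.blt (80 * q + j) tab.length = true := Nat.blt_eq ▸ hk
  interval_cases q
  · have h := below_spec tab_part0 j hj
    rw [show Nat.add 0 j = 80 * 0 + j from rfl, hb, cond_true] at h
    exact h
  · have h := below_spec tab_part1 j hj
    rw [show Nat.add 80 j = 80 * 1 + j from rfl, hb, cond_true] at h
    exact h
  · have h := below_spec tab_part2 j hj
    rw [show Nat.add 160 j = 80 * 2 + j from rfl, hb, cond_true] at h
    exact h
  · have h := below_spec tab_part3 j hj
    rw [show Nat.add 240 j = 80 * 3 + j from rfl, hb, cond_true] at h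
    exact h

theorem wits_ok : wits.all witOk = true := by decide +kernel

end Cfsg.Agent.H13.SuzMult
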