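import Cfsg.Agent.H13.SuzMult.Checks2
import Cfsg.Agent.H13.SuzMult.Checks3
import Cfsg.Agent.H13.SuzMult.Checks5
import Cfsg.Agent.H13.SuzMult.Cover
import Cfsg.Agent.H13.SylMult.Mult
import Cfsg.Agent.H36.SuzOuter

/-!
The Schur multiplier of the Suzuki group is cyclic of order six.
-/

set_option autoImplicit false
set_option maxRecDepth 100000

namespace Cfsg.Agent.H13.SuzMult

open Cfsg Equiv Cfsg.Agent.H16 Cfsg.Agent.H36 Cfsg.Agent.H13.SylMult

theorem ctx_eq : Syl.ctx.n = H36.Suz.ctx.n ∧ Syl.ctx.w = H36.Suz.ctx.w ∧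
    Syl.ctx.gens = H36.Suz.ctx.gens := by decide +kernel

/-- The generators. -/
noncomputable def σG : Fin Syl.ctx.gens.length → Perm (Fin Syl.ctx.n) := fun c =>
  (Fin.castOrderIso ctx_eq.1).toEquiv.symm.permCongr
    (H36.Suz.gen (Fin.cast (congrArg List.length ctx_eq.2.2) c))

theorem σG_rep (c : Fin Syl.ctx.gens.length) : Syl.ctx.Rep (σG c) (getN Syl.ctx.gens c) := fun x => by
  have h := H36.Suz.gen_rep (Fin.cast (congrArg List.length ctx_eq.2.2) c) (Fin.cast ctx_eq.1 x)
  show ((H36.Suz.gen (Fin.cast (congrArg List.length ctx_eq.2.2) c) (Fin.cast ctx_eq.1 x) :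
    Fin H36.Suz.ctx.n) : ℕ) = _
  rw [h]
  simp only [AutEngine.Ctx.ap, Fin.val_cast]
  exact (congrArg₂ (fun w l => pim w (getN l c) x) ctx_eq.2.1 ctx_eq.2.2).symm

/-- The two models agree. -/
noncomputable def toModel : Subgroup.closure (Set.range σG) ≃* AutEngine.grpOf H36.Suz.gen :=
  ((Fin.castOrderIso ctx_eq.1).toEquiv.permCongrHom.subgroupMap (Subgroup.closure (Set.range σG))).trans
    (MulEquiv.subgroupCongr (by
      rw [MonoidHom.map_closure, ← Set.range_comp]
      show Subgroup.closure _ = AutEngine.grpOf H36.Suz.gen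
      unfold AutEngine.grpOf
      congr 1))

theorem card_closure : Nat.card (Subgroup.closure (Set.range σG)) = 448345497600 := by
  rw [Nat.card_congr toModel.toEquiv, H36.Suz.card_grp]

theorem six_fact : (6 : ℕ).factorization 2 = 1 ∧ (6 : ℕ).factorization 3 = 1 :=
  ⟨factorization_eq (a := 1) (b := 3) Nat.prime_two (by norm_num) (by norm_num),
    factorization_eq (a := 1) (b := 2) Nat.prime_three (by norm_num) (by norm_num)⟩

theorem card_ker_dvd_six (Δ : Type) [Group Δ] [Finite Δ]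
    (τ : Δ →* Subgroup.closure (Set.range σG)) (hτ : Cfsg.IsStemExtension τ) : Nat.card τ.ker ∣ 6 := by
  obtain ⟨E2, F2, h2⟩ := groupFacts (R := Syl.perm2) (D := Syl.pc2) (C := Syl.cert2) σG σG_rep Syl.perm2_ok
    (by decide +kernel) (show Nat.Prime 2 by norm_num) Syl.pc2_ok Syl.rows2_ok (by decide +kernel)
  obtain ⟨E3, F3, h3⟩ := groupFacts (R := Syl.perm3) (D := Syl.pc3) (C := Syl.cert3) σG σG_rep Syl.perm3_ok
    (by decide +kernel) (show Nat.Prime 3 by norm_num) Syl.pc3_ok Syl.rows3_ok (by decide +kernel)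
  obtain ⟨E5, F5, h5⟩ := groupFacts (R := Syl.perm5) (D := Syl.pc5) (C := Syl.cert5) σG σG_rep Syl.perm5_ok
    (by decide +kernel) (show Nat.Prime 5 by norm_num) Syl.pc5_ok Syl.rows5_ok (by decide +kernel)
  have b2 := factorization_ker_le hτ (show Nat.Prime 2 by norm_num) Syl.pc2_ok Syl.rows2_ok Syl.combos2_ok h2
    (factorization_eq (a := 13) (b := 54729675) (by norm_num : Nat.Prime 2) (by rw [card_closure]; rfl)
      (show ¬ (2 : ℕ) ∣ 54729675 by norm_num))
  have b3 := factorization_ker_le hτ (show Nat.Prime 3 by norm_num) Syl.pc3_ok Syl.rows3_ok Syl.combos3_ok h3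
    (factorization_eq (a := 7) (b := 205004800) (by norm_num : Nat.Prime 3) (by rw [card_closure]; rfl)
      (show ¬ (3 : ℕ) ∣ 205004800 by norm_num))
  have b5 := factorization_ker_le hτ (show Nat.Prime 5 by norm_num) Syl.pc5_ok Syl.rows5_ok Syl.combos5_ok h5
    (factorization_eq (a := 2) (b := 17933819904) (by norm_num : Nat.Prime 5) (by rw [card_closure]; rfl)
      (show ¬ (5 : ℕ) ∣ 17933819904 by norm_num))
  refine card_ker_dvd hτ (by norm_num) [2, 3, 5] (fun p hp => ?_) (fun p hp hn => ?_)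
  · simp only [List.mem_cons, List.not_mem_nil, or_false] at hp
    rcases hp with rfl | rfl | rfl
    · rw [six_fact.1]; exact b2
    · rw [six_fact.2]; exact b3
    · exact b5.trans (Nat.zero_le _)
  · rw [card_closure]
    simp only [List.mem_cons, List.not_mem_nil, or_false, not_or] at hn
    by_contra hlt
    have hd : p ^ 2 ∣ 2 ^ 13 * (3 ^ 7 * (5 ^ 2 * (7 * (11 * 13)))) := by
      refine (pow_dvd_pow p (by omega : 2 ≤ (448345497600 : ℕ).factorization p)).trans ?_
      norm_num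
      exact Nat.ordProj_dvd 448345497600 p
    have cop : ∀ q k, q.Prime → p ≠ q → Nat.Coprime (p ^ 2) (q ^ k) := fun q k hq hne =>
      Nat.Coprime.pow 2 k ((Nat.coprime_primes hp hq).2 hne)
    have h3 := (cop 5 2 (by norm_num) hn.2.2).dvd_of_dvd_mul_left
      ((cop 3 7 Nat.prime_three hn.2.1).dvd_of_dvd_mul_left
        ((cop 2 13 Nat.prime_two hn.1).dvd_of_dvd_mul_left hd))
    rcases (Nat.Prime.dvd_mul hp).1 ((dvd_pow_self p two_ne_zero).trans h3) with h | h
    · rw [(Nat.prime_dvd_prime_iff_eq hp (by norm_num)).1 h] at h3; norm_num at h3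
    rcases (Nat.Prime.dvd_mul hp).1 h with h | h
    · rw [(Nat.prime_dvd_prime_iff_eq hp (by norm_num)).1 h] at h3; norm_num at h3
    · rw [(Nat.prime_dvd_prime_iff_eq hp (by norm_num)).1 h] at h3; norm_num at h3

theorem hasMultiplier : Cfsg.HasCyclicSchurMultiplier Cfsg.Spor.Suz 6 := by
  let E : Cfsg.Spor.Suz ≃* ↥(Subgroup.closure (Set.range σG)) := H36.Suz.modelEquiv.trans toModel.symm
  obtain ⟨Γ, iG, iF, π, hπ, hc, hcard⟩ := exists_stem
  have hk : (E.toMonoidHom.comp π).ker = π.ker := by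
    ext x
    simp only [MonoidHom.mem_ker, MonoidHom.coe_comp, Function.comp_apply, MulEquiv.coe_toMonoidHom,
      MulEquiv.map_eq_one_iff]
  refine hasCyclic_of_bound E (fun Δ _ _ τ hτ => card_ker_dvd_six Δ τ hτ) (by norm_num)
    ⟨Γ, iG, iF, E.toMonoidHom.comp π, ⟨E.surjective.comp hπ.1, ?_, ?_⟩, ?_, ?_⟩
  · rw [hk]; exact hπ.2.1
  · rw [hk]; exact hπ.2.2
  · rw [hk]; exact hc
  · rw [hk]; exact hcard

end Cfsg.Agent.H13.SuzMult
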