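import Mathlib

/-!
Matrices of size twelve over the field of seven elements, packed in natural numbers, three bits an
entry, with a kernel test for products.
-/

set_option autoImplicit false

namespace Cfsg.Agent.H13.SuzMult

/-- Matrices of size twelve over the field of seven elements. -/
abbrev M12 := Matrix (Fin 12) (Fin 12) (ZMod 7)

/-- An entry of a packed matrix. -/
def ent (A i j : ℕ) : ℕ := Nat.land (Nat.shiftRight A (Nat.mul 3 (Nat.add (Nat.mul 12 i) j))) 7

/-- The matrix coded by a number. -/
def toMat (A : ℕ) : M12 := Matrix.of fun i j => (ent A i j : ZMod 7)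

/-- One term of an entry of a product. -/
def term (A B i j k : ℕ) : ℕ := Nat.mul (ent A i k) (ent B k j)

/-- An entry of a product, before reduction. -/
def dot (A B i j : ℕ) : ℕ :=
  Nat.add (term A B i j 0) (Nat.add (term A B i j 1) (Nat.add (term A B i j 2) (Nat.add (term A B i j 3)
    (Nat.add (term A B i j 4) (Nat.add (term A B i j 5) (Nat.add (term A B i j 6) (Nat.add (term A B i j 7)
      (Nat.add (term A B i j 8) (Nat.add (term A B i j 9) (Nat.add (term A B i j 10)
        (term A B i j 11)))))))))))

/-- A test holds below a bound. -/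
noncomputable def below (f : ℕ → Bool) (n : ℕ) : Bool :=
  Nat.rec (motive := fun _ => Bool) true (fun m ih => f m && ih) n

theorem below_spec {f : ℕ → Bool} : ∀ {n : ℕ}, below f n = true → ∀ i < n, f i = true
  | 0, _, _, hi => absurd hi (Nat.not_lt_zero _)
  | n + 1, h, i, hi => by
    have h' : (f n && below f n) = true := h
    rw [Bool.and_eq_true] at h'
    rcases Nat.lt_succ_iff_lt_or_eq.1 hi with h'' | h''
    · exact below_spec h'.2 i h''
    · exact h'' ▸ h'.1

/-- The third number codes the product of the first two. -/
noncomputable def mulOk (A B C : ℕ) : Bool :=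
  below (fun i => below (fun j => Nat.beq (Nat.mod (dot A B i j) 7) (ent C i j)) 12) 12

theorem mulOk_spec {A B C : ℕ} (h : mulOk A B C = true) : toMat A * toMat B = toMat C := by
  ext i j
  have e := Nat.eq_of_beq_eq_true (below_spec (below_spec h i i.2) j j.2)
  show _ = (ent C i j : ZMod 7)
  rw [← e]
  show _ = ((dot A B i j % 7 : ℕ) : ZMod 7)
  rw [ZMod.natCast_mod, Matrix.mul_apply]
  simp only [dot, Nat.add_eq, Nat.cast_add, Fin.sum_univ_succ, Fin.sum_univ_zero]
  simp only [toMat, Matrix.of_apply, term, Nat.mul_eq, Nat.cast_mul]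
  simp [add_assoc]

/-- The number codes a scalar matrix. -/
noncomputable def scalOk (A c : ℕ) : Bool :=
  below (fun i => below (fun j => Nat.beq (ent A i j) (cond (Nat.beq i j) c 0)) 12) 12

theorem scalOk_spec {A c : ℕ} (h : scalOk A c = true) :
    toMat A = Matrix.scalar (Fin 12) (c : ZMod 7) := by
  ext i j
  have e := Nat.eq_of_beq_eq_true (below_spec (below_spec h i i.2) j j.2)
  rw [Matrix.scalar_apply, Matrix.diagonal_apply]
  show (ent A i j : ZMod 7) = _
  rw [e]
  by_cases hij : i = j
  · subst hij; simp
  · rw [if_neg hij, show Nat.beq (i : ℕ) j = false from ?_]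
    · simp
    · exact Bool.eq_false_iff.2 fun hh => hij (Fin.ext (Nat.eq_of_beq_eq_true hh))

/-- The first number codes the multiple of the second by a scalar. -/
noncomputable def smulOk (A B c : ℕ) : Bool :=
  below (fun i => below (fun j => Nat.beq (Nat.mod (Nat.mul c (ent B i j)) 7) (ent A i j)) 12) 12

theorem smulOk_spec {A B c : ℕ} (h : smulOk A B c = true) :
    toMat A = Matrix.scalar (Fin 12) (c : ZMod 7) * toMat B := by
  ext i j
  have e := Nat.eq_of_beq_eq_true (below_spec (below_spec h i i.2) j j.2)
  rw [Matrix.scalar_apply, Matrix.diagonal_mul]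
  show (ent A i j : ZMod 7) = _
  rw [← e]
  show ((c * ent B i j % 7 : ℕ) : ZMod 7) = _
  rw [ZMod.natCast_mod, Nat.cast_mul]
  rfl

/-- A relator: the word, the products of its beginnings, the scalar value. -/
structure RelCert where
  /-- the letters -/
  word : List ℕ
  /-- the products of the beginnings of length at least two -/
  pre : List ℕ
  /-- the scalar -/
  c : ℕ

/-- A pair of program entries commuting up to a scalar. -/
structure Wit where
  /-- first entry -/
  u : ℕ
  /-- second entry -/
  v : ℕ
  /-- their product -/
  uv : ℕ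
  /-- the product in the other order -/
  vu : ℕ
  /-- the scalar -/
  c : ℕ

end Cfsg.Agent.H13.SuzMult
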