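import Cfsg.Agent.H13.SuzMult.Data
import Cfsg.Agent.H13.SylMult.Split

/-! The program agrees with its factors, checked in pieces. -/

set_option autoImplicit false
set_option maxRecDepth 100000

namespace Cfsg.Agent.H13.SuzMult.Syl

open Cfsg.Agent.H16 Cfsg.Agent.H36 Cfsg.Agent.H13.SylMult

theorem slp_part0 : allFrom ctx.slpOk 40 0 = true := by decide +kernel

theorem slp_part1 : allFrom ctx.slpOk 40 40 = true := by decide +kernel

theorem slp_part2 : allFrom ctx.slpOk 40 80 = true := by decide +kernel

theorem slp_part3 : allFrom ctx.slpOk 40 120 = true := by decide +kernel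

theorem slp_part4 : allFrom ctx.slpOk 40 160 = true := by decide +kernel

theorem slp_part5 : allFrom ctx.slpOk 40 200 = true := by decide +kernel

theorem slp_part6 : allFrom ctx.slpOk 40 240 = true := by decide +kernel

theorem slp_part7 : allFrom ctx.slpOk 40 280 = true := by decide +kernel

theorem slp_part8 : allFrom ctx.slpOk 40 320 = true := by decide +kernel

theorem slp_part9 : allFrom ctx.slpOk 40 360 = true := by decide +kernel

theorem slp_part10 : allFrom ctx.slpOk 40 400 = true := by decide +kernel

theorem slp_part11 : allFrom ctx.slpOk 40 440 = true := by decide +kernel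

theorem slp_part12 : allFrom ctx.slpOk 40 480 = true := by decide +kernel

theorem slp_part13 : allFrom ctx.slpOk 40 520 = true := by decide +kernel

theorem slp_part14 : allFrom ctx.slpOk 40 560 = true := by decide +kernel

theorem slp_part15 : allFrom ctx.slpOk 40 600 = true := by decide +kernel

theorem slp_part16 : allFrom ctx.slpOk 40 640 = true := by decide +kernel

theorem slp_part17 : allFrom ctx.slpOk 40 680 = true := by decide +kernel

theorem slp_part18 : allFrom ctx.slpOk 40 720 = true := by decide +kernel

theorem slp_part19 : allFrom ctx.slpOk 22 760 = true := by decide +kernel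

theorem slp_all : ∀ k, k < ctx.ns → ctx.slpOk k = true :=
  (allFrom_extend (allFrom_extend (allFrom_extend (allFrom_extend (allFrom_extend (allFrom_extend (allFrom_extend (allFrom_extend (allFrom_extend (allFrom_extend (allFrom_extend (allFrom_extend (allFrom_extend (allFrom_extend (allFrom_extend (allFrom_extend (allFrom_extend (allFrom_extend (allFrom_extend (allFrom_extend allFrom_nil slp_part0) slp_part1) slp_part2) slp_part3) slp_part4) slp_part5) slp_part6) slp_part7) slp_part8) slp_part9) slp_part10) slp_part11) slp_part12) slp_part13) slp_part14) slp_part15) slp_part16) slp_part17) slp_part18) slp_part19)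

end Cfsg.Agent.H13.SuzMult.Syl
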